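import Cfsg.Agent.Blocks.InertiaFixed.Trace
import Cfsg.Agent.Chars.Basic.Linear

/-!
# The weights are equally distributed over the cosets of the commutators

For a block with abelian defect group `P` and inertial group `T`, the weights of the elements of a
coset of a subgroup `R` containing `[P, T]` add up to the same number for every coset.
-/

set_option autoImplicit false
set_option linter.style.haveILetI false
open Cfsg CfsgLib.Chars.Exceptional
open scoped MonoidAlgebra ComplexConjugate

namespace CfsgLib.Blocks.InertiaFixed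

universe u

variable {M : Ideal AlgInt} [hM : M.IsMaximal] {G : Type u} [Group G] [Fintype G]
  {p : ℕ} [hp : Fact p.Prime] [CharP (kres M) p] {B : Set (IrrCharacter G)} {P : Subgroup G}
  {g : (kres M)[G]} (hMp : IsPModular p M) (hB : IsPBlock M B)
  (hmax : IsMaxPairIdem p ⊤ (topEl M B) P g) (hab : ∀ x ∈ P, ∀ y ∈ P, x * y = y * x)

include hMp hB hmax hab in
/-- **The count of the characters by weights.** -/
theorem natCard_eq_sum_weight [Fintype P] :
    Nat.card (pairStab ⊤ P g) * Nat.card B = ∑ v : P, weight p ⊤ P g (v : G) := by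
  refine Nat.cast_injective (R := ℂ) ?_
  have h := sum_classInner_starFun hMp hB hmax hab (η := fun _ => (1 : ℂ)) (fun _ _ _ _ => rfl)
  rw [Finset.sum_congr rfl (g := fun _ => (1 : ℂ)) (fun χ hχ => by
    rw [starFun_one hMp hB hmax (B.toFinite.mem_toFinset.1 hχ), CfsgLib.Chars.classInner_irr,
      if_pos rfl]), Finset.sum_const, nsmul_eq_mul, mul_one,
    ← Set.ncard_eq_toFinset_card B B.toFinite, ← Nat.card_coe_set_eq] at h
  push_cast
  rw [h]
  simp

include hMp hB hmax hab in
/-- The weights against a nontrivial stable linear character. -/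
theorem sum_weight_mul_eq_zero [Fintype P] (l : P →* ℂˣ)
    (hl : ∀ t ∈ pairStab ⊤ P g, ∀ x y : P, t * (x : G) * t⁻¹ = y → l y = l x) {v : P}
    (hv : l v ≠ 1) : ∑ w : P, (weight p ⊤ P g (w : G) : ℂ) * (l w : ℂ) = 0 := by
  classical
  set η := extendByZero P (fun w : P => (l w : ℂ)) with hη
  have hηv : ∀ w : P, η w = (l w : ℂ) := fun w =>
    Subtype.val_injective.extend_apply _ _ w
  have hE := isBlockIdem_topEl (M := M) hB
  have hst : IsStableFn p P g η := by
    intro a ha x hx
    obtain ⟨t, ht, hta⟩ := exists_stab_of_carries hE hmax hab hx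
    have hxa : x * a * x⁻¹ ∈ P := hx.le.2 ⟨a, Subgroup.mem_zpowers a, rfl⟩
    rw [show x * a * x⁻¹ = ((⟨_, hxa⟩ : P) : G) from rfl, hηv]
    conv_rhs => rw [show a = ((⟨a, ha⟩ : P) : G) from rfl, hηv]
    rw [hl t ht ⟨a, ha⟩ ⟨_, hxa⟩ hta]
  have hgen : IsStableGen p P g η := by
    refine ⟨hst, ?_⟩
    have e : (fun w : P => η w) = (CfsgLib.Chars.linChar l : P → ℂ) := funext fun w => hηv w
    rw [e]
    exact gen_of_char (CfsgLib.Chars.isCharacter_coe _)
  have hnorm : ∀ a ∈ P, η a * conj (η a) = 1 := by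
    intro a ha
    rw [show a = ((⟨a, ha⟩ : P) : G) from rfl, hηv]
    have h := congrArg Units.val (map_pow l (⟨a, ha⟩ : P) (Nat.card P))
    rw [pow_card_eq_one', map_one, Units.val_one, Units.val_pow_eq_pow_val] at h
    rw [Complex.mul_conj, Complex.normSq_eq_norm_sq,
      Complex.norm_eq_one_of_pow_eq_one h.symm Nat.card_pos.ne', one_pow, Complex.ofReal_one]
  have h1 : η 1 = 1 := by
    rw [show (1 : G) = ((1 : P) : G) from rfl, hηv, map_one, Units.val_one]
  have h := sum_classInner_starFun hMp hB hmax hab hst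
  rw [Finset.sum_eq_zero fun χ hχ => classInner_starFun_eq_zero hMp hB hmax hab
    (B.toFinite.mem_toFinset.1 hχ) hgen h1 hnorm v.2
    (fun e => hv (Units.ext (by rw [← hηv, e, Units.val_one]))), mul_zero] at h
  rw [h]
  exact Finset.sum_congr rfl fun w _ => by rw [hηv]

include hMp hB hmax hab in
/-- The weights on the cosets of a subgroup containing the commutators. -/
theorem sum_weight_coset [Fintype P] (R : Subgroup G) [Fintype R] (hR : R ≤ P)
    (hcomm : commSet (pairStab ⊤ P g) P ⊆ (R : Set G)) {a : G} (ha : a ∈ P) :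
    ∑ r : R, weight p ⊤ P g (a * r) = ∑ r : R, weight p ⊤ P g (r : G) := by
  classical
  letI : CommGroup P :=
    { (inferInstance : Group P) with mul_comm := fun a b => Subtype.ext (hab a a.2 b b.2) }
  set F : P → ℂ := fun v => ∑ r : R, (weight p ⊤ P g ((v : G) * r) : ℂ) with hF
  have hcl : IsClassFunction P F := fun x y => by rw [mul_comm y x, mul_inv_cancel_right]
  have hzero : ∀ φ : IrrCharacter P, φ ≠ CfsgLib.Chars.oneChar P →
      classInner F (φ : P → ℂ) = 0 := by
    intro φ hφ
    obtain ⟨l, rfl⟩ := CfsgLib.Chars.exists_linChar_eq φ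
      (CfsgLib.Chars.map_one_eq_one_of_commutator_eq_bot (by
        rw [eq_bot_iff, commutator_def, Subgroup.commutator_le]
        intro x _ y _
        rw [Subgroup.mem_bot, commutatorElement_eq_one_iff_mul_comm]
        exact mul_comm x y) φ)
    have hlc : ∀ w : P, conj ((l w : ℂ)) = ((l⁻¹ : P →* ℂˣ) w : ℂ) := fun w => by
      have h := congrArg Units.val (map_pow l w (Nat.card P))
      rw [pow_card_eq_one', map_one, Units.val_one, Units.val_pow_eq_pow_val] at h
      rw [MonoidHom.inv_apply, Units.val_inv_eq_inv_val, Complex.inv_eq_conj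
        (Complex.norm_eq_one_of_pow_eq_one h.symm Nat.card_pos.ne')]
    set j : R → P := fun r => ⟨r, hR r.2⟩ with hj
    have key : ∑ v : P, F v * conj ((l v : ℂ)) =
        (∑ r : R, ((l (j r) : ℂˣ) : ℂ)) *
          ∑ w : P, (weight p ⊤ P g (w : G) : ℂ) * conj ((l w : ℂ)) := by
      rw [hF, Finset.sum_congr rfl fun v _ => Finset.sum_mul _ _ _, Finset.sum_comm, Finset.sum_mul]
      refine Finset.sum_congr rfl fun r _ => ?_
      rw [Finset.mul_sum]
      refine Fintype.sum_equiv (Equiv.mulRight (j r)) _ _ fun v => ?_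
      simp only [Equiv.coe_mulRight, hlc, map_mul, Units.val_mul, Subgroup.coe_mul]
      have e : ((l (j r) : ℂˣ) : ℂ) * ((l⁻¹ : P →* ℂˣ) (j r) : ℂ) = 1 := by
        rw [MonoidHom.inv_apply, ← Units.val_mul, mul_inv_cancel, Units.val_one]
      linear_combination -((weight p ⊤ P g ((v : G) * r) : ℂ) * ((l⁻¹ : P →* ℂˣ) v : ℂ)) * e
    rw [classInner]
    simp only [CfsgLib.Chars.linChar_apply]
    rw [key]
    by_cases hRl : ∀ r : R, l (j r) = 1
    · -- stable and nontrivial
      obtain ⟨v, hv⟩ : ∃ v, (l⁻¹ : P →* ℂˣ) v ≠ 1 := by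
        by_contra! h
        apply hφ
        rw [CfsgLib.Chars.linChar_eq_oneChar_iff]
        exact inv_eq_one.1 (MonoidHom.ext h)
      have := sum_weight_mul_eq_zero hMp hB hmax hab l⁻¹ (fun t ht x y hxy => by
        have hz : (y * x⁻¹ : P) = j ⟨(y : G) * (x : G)⁻¹, hcomm ⟨t, ht, x, x.2, by rw [hxy]⟩⟩ :=
          Subtype.ext rfl
        have h1 : l (y * x⁻¹) = 1 := by rw [hz]; exact hRl _
        rw [MonoidHom.inv_apply, MonoidHom.inv_apply]
        rw [map_mul, map_inv, mul_inv_eq_one] at h1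
        rw [h1]) hv
      simp only [hlc]
      rw [this, mul_zero, mul_zero]
    · obtain ⟨r₀, hr₀⟩ := not_forall.1 hRl
      have h0 : ∑ r : R, ((l (j r) : ℂˣ) : ℂ) = 0 := by
        set S := ∑ r : R, ((l (j r) : ℂˣ) : ℂ) with hS
        have h1 : ((l (j r₀) : ℂˣ) : ℂ) * S = S := by
          rw [hS, Finset.mul_sum]
          refine Fintype.sum_equiv (Equiv.mulLeft r₀) _ _ fun r => ?_
          rw [Equiv.coe_mulLeft, ← Units.val_mul, ← map_mul]
          rfl
        have h2 : (((l (j r₀) : ℂˣ) : ℂ) - 1) * S = 0 := by rw [sub_mul, one_mul, h1, sub_self]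
        exact (mul_eq_zero.1 h2).resolve_left
          (sub_ne_zero.2 fun e => hr₀ (Units.ext e))
      rw [h0, zero_mul, mul_zero]
  have hconst : ∀ v, F v = classInner F (CfsgLib.Chars.oneChar P : P → ℂ) := by
    intro v
    rw [CfsgLib.Chars.eq_sum_classInner_mul hcl v, Finset.sum_eq_single (CfsgLib.Chars.oneChar P)]
    · rw [CfsgLib.Chars.oneChar_apply, mul_one]
    · intro φ _ hφ; rw [hzero φ hφ, zero_mul]
    · exact fun h => absurd (Finset.mem_univ _) h
  have h := (hconst ⟨a, ha⟩).trans (hconst 1).symm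
  simp only [hF, OneMemClass.coe_one, one_mul] at h
  exact_mod_cast h

end CfsgLib.Blocks.InertiaFixed
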