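import Cfsg.Agent.Blocks.InertiaFixed.Coset

/-!
# An element of the defect group fixed by the inertial group

For a block `B` with abelian defect group `P` and an element `u` of `P` fixed by the inertial
group, the block of `C(u)` under the maximal pair has the same rank and the same number of
characters as `B`.
-/

set_option autoImplicit false
set_option linter.style.haveILetI false
open Cfsg
open scoped MonoidAlgebra

namespace CfsgLib.Blocks.InertiaFixed

universe u

variable {M : Ideal AlgInt} [hM : M.IsMaximal] {p : ℕ} [hp : Fact p.Prime] [CharP (kres M) p]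
  {G : Type u} [Group G] [Fintype G] {B : Set (IrrCharacter G)} {P : Subgroup G}
  {g : (kres M)[G]}

/-- The block under the pair at the centralizer of two elements. -/
theorem exists_under_pair (hab : ∀ x ∈ P, ∀ y ∈ P, x * y = y * x) (hg : IsPairIdem p ⊤ P g)
    {a v : G} (ha : a ∈ P) (hv : v ∈ P) :
    ∃ b : Set (IrrCharacter
      (Subgroup.centralizer ({a} : Set G) ⊓ Subgroup.centralizer ({v} : Set G) : Subgroup G)),
      IsPBlock M b ∧ BrOver P g (subEl M _ b) := by
  have hS : Subgroup.centralizer ({a} : Set G) ⊓ Subgroup.centralizer ({v} : Set G) =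
      Subgroup.centralizer ((Subgroup.closure ({a, v} : Set G) : Subgroup G) : Set G) := by
    rw [Subgroup.centralizer_closure]
    ext y
    simp [Subgroup.mem_centralizer_iff]
  rw [hS]
  obtain ⟨b, hb, hover, -⟩ := exists_under (Q := Subgroup.closure ({a, v} : Set G)) hab hg
    ((Subgroup.closure_le _).2 (Set.insert_subset ha (Set.singleton_subset_iff.2 hv)))
  exact ⟨b, hb, hover⟩

theorem centralizer_one_eq_top : Subgroup.centralizer ({1} : Set G) = ⊤ :=
  eq_top_iff.2 fun x _ => Subgroup.mem_centralizer_singleton_iff.2 (by simp)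

omit [Fintype G] in
theorem map_centralizer_singleton (H : Subgroup G) (v : H) :
    (Subgroup.centralizer ({v} : Set H)).map H.subtype =
      H ⊓ Subgroup.centralizer ({(v : G)} : Set G) := by
  ext y
  constructor
  · rintro ⟨z, hz, rfl⟩
    exact ⟨z.2, Subgroup.mem_centralizer_singleton_iff.2
      (congrArg Subtype.val (Subgroup.mem_centralizer_singleton_iff.1 hz))⟩
  · rintro ⟨hy, hy'⟩
    exact ⟨⟨y, hy⟩, Subgroup.mem_centralizer_singleton_iff.2
      (Subtype.ext (Subgroup.mem_centralizer_singleton_iff.1 hy')), rfl⟩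

/-- Ranks inside a subgroup are ranks in the group. -/
theorem rankUnder_subgroup {H : Subgroup G} (hPH : P ≤ H) (hPp : IsPGroup p P)
    (hab : ∀ x ∈ P, ∀ y ∈ P, x * y = y * x) {g' : (kres M)[H]}
    (he : emb (kres M) H.subtype g' = g) (hg : g ≠ 0) {v : G} (hv : v ∈ P)
    (hex : ∃ b : Set (IrrCharacter (H ⊓ Subgroup.centralizer ({v} : Set G) : Subgroup G)),
      IsPBlock M b ∧ BrOver P g (subEl M _ b)) :
    rankUnder p (Subgroup.centralizer ({⟨v, hPH hv⟩} : Set H)) (P.subgroupOf H) g' =
      rankUnder p (H ⊓ Subgroup.centralizer ({v} : Set G)) P g := by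
  have hP : (P.subgroupOf H).map H.subtype = P := Subgroup.map_subgroupOf_eq_of_le hPH
  have hS := map_centralizer_singleton H ⟨v, hPH hv⟩
  have h := rankUnder_map (φ := H.subtype) H.subtype_injective
    (S := Subgroup.centralizer ({⟨v, hPH hv⟩} : Set H)) (P := P.subgroupOf H)
    (hPp.comap_of_injective _ H.subtype_injective) (fun y (hy : y ∈ P.subgroupOf H) =>
      Subgroup.mem_centralizer_singleton_iff.2 (Subtype.ext (hab (y : G) hy v hv : (y : G) * v = v * y))) (g := g')
    (fun h => hg (by rw [← he, h, map_zero])) (by rw [hP, hS, he]; exact hex)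
  rw [h, hP, hS, he]

/-- The inertial group inside a subgroup. -/
theorem mem_pairStab_subgroup {H : Subgroup G} (hPH : P ≤ H) {g' : (kres M)[H]}
    (he : emb (kres M) H.subtype g' = g) (t : H) :
    t ∈ pairStab ⊤ (P.subgroupOf H) g' ↔ (t : G) ∈ pairStab ⊤ P g := by
  rw [mem_pairStab, mem_pairStab, ← he]
  refine and_congr (and_congr Iff.rfl ?_) ?_
  · rw [Subgroup.mem_normalizer_iff, Subgroup.mem_normalizer_iff]
    constructor
    · intro h y
      by_cases hy : y ∈ H
      · exact h ⟨y, hy⟩
      · refine iff_of_false (fun h' => hy (hPH h')) fun h' => hy ?_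
        have h2 := H.mul_mem (H.mul_mem (H.inv_mem t.2) (hPH h')) t.2
        simpa [mul_assoc] using h2
    · exact fun h y => h y
  · rw [show (t : G) = H.subtype t from rfl, ← emb_conjA, (emb_injective H.subtype_injective).eq_iff]

variable (hMp : IsPModular p M)

/-- The weights computed inside a subgroup containing the inertial group. -/
theorem weight_subgroup {H : Subgroup G} [Fintype H] (hPH : P ≤ H) (hTH : pairStab ⊤ P g ≤ H)
    (hPp : IsPGroup p P) (hab : ∀ x ∈ P, ∀ y ∈ P, x * y = y * x) {g' : (kres M)[H]}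
    (he : emb (kres M) H.subtype g' = g) (hg : g ≠ 0) {v : G} (hv : v ∈ P)
    (hex : ∃ b : Set (IrrCharacter (H ⊓ Subgroup.centralizer ({v} : Set G) : Subgroup G)),
      IsPBlock M b ∧ BrOver P g (subEl M _ b)) :
    weight p ⊤ (P.subgroupOf H) g' ⟨v, hPH hv⟩ = weight p H P g v := by
  rw [weight, weight, top_inf_eq, rankUnder_subgroup hPH hPp hab he hg hv hex]
  congr 1
  rw [← Subgroup.card_map_of_injective H.subtype_injective]
  congr 2
  ext y
  constructor
  · rintro ⟨z, ⟨hz1, hz2⟩, rfl⟩
    exact ⟨(mem_pairStab_subgroup hPH he z).1 hz1, Subgroup.mem_centralizer_singleton_iff.2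
      (congrArg Subtype.val (Subgroup.mem_centralizer_singleton_iff.1 hz2))⟩
  · rintro ⟨hy1, hy2⟩
    exact ⟨⟨y, hTH hy1⟩, ⟨(mem_pairStab_subgroup hPH he _).2 hy1,
      Subgroup.mem_centralizer_singleton_iff.2
        (Subtype.ext (Subgroup.mem_centralizer_singleton_iff.1 hy2))⟩, rfl⟩

/-- The data of the block under the pair at the centralizer of an element of `P`. -/
theorem exists_local (hMp : IsPModular p M) (hB : IsPBlock M B)
    (hmax : IsMaxPairIdem p ⊤ (topEl M B) P g)
    (hab : ∀ x ∈ P, ∀ y ∈ P, x * y = y * x) {v : G} (hv : v ∈ P) :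
    ∃ (b : Set (IrrCharacter (Subgroup.centralizer ({v} : Set G))))
      (g' : (kres M)[Subgroup.centralizer ({v} : Set G)]),
      IsPBlock M b ∧ BrOver P g (subEl M _ b) ∧ P ≤ Subgroup.centralizer ({v} : Set G) ∧
      emb (kres M) (Subgroup.centralizer ({v} : Set G)).subtype g' = g ∧
      IsMaxPairIdem p ⊤ (topEl M b) (P.subgroupOf (Subgroup.centralizer ({v} : Set G))) g' := by
  have hE := isBlockIdem_topEl (M := M) hB
  have hg := hmax.1.1
  rw [← HeightZero.centralizer_zpowers_eq]
  obtain ⟨b, hb, hover, hle⟩ :=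
    exists_under (Q := Subgroup.zpowers v) hab hg (Subgroup.zpowers_le.2 hv)
  have hPC := KleinFour.le_centralizer_of_abelian hab (Subgroup.zpowers_le.2 hv)
  have hgC : IsBlockIdem (Subgroup.centralizer (P : Set G)) g := by
    have := hg.2.2; rwa [top_inf_eq] at this
  obtain ⟨g', he, hm⟩ := exists_maxPair_subgroup hMp hg.1 hab hPC
    (Subgroup.centralizer_le (Subgroup.zpowers_le.2 hv)) hb
    (KleinFour.maxPair_centralizer hE hmax hab hle).2 hgC hover
  exact ⟨b, g', hb, hover, hPC, he, hm⟩

omit hp [CharP (kres M) p] in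
theorem centralizer_eq_top {v : G} (hv : v ∈ Subgroup.center G) :
    Subgroup.centralizer ({v} : Set G) = ⊤ :=
  eq_top_iff.2 fun x _ => Subgroup.mem_centralizer_singleton_iff.2 (Subgroup.mem_center_iff.1 hv x)

include hMp in
/-- Equal ranks at the noncentral elements, given the theorem in smaller groups. -/
theorem rankUnder_noncentral (hB : IsPBlock M B) (hmax : IsMaxPairIdem p ⊤ (topEl M B) P g)
    (hab : ∀ x ∈ P, ∀ y ∈ P, x * y = y * x) {a v : G} (ha : a ∈ P) (hv : v ∈ P)
    (hfix : ∀ t ∈ pairStab ⊤ P g, t * a * t⁻¹ = a)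
    (ih : ∀ (K : Type u) [Group K] [Fintype K], Nat.card K < Nat.card G →
      ∀ (B' : Set (IrrCharacter K)) (P' : Subgroup K) (g' : (kres M)[K]), IsPBlock M B' →
      IsMaxPairIdem p ⊤ (topEl M B') P' g' → (∀ x ∈ P', ∀ y ∈ P', x * y = y * x) →
      ∀ a' ∈ P', (∀ t ∈ pairStab ⊤ P' g', t * a' * t⁻¹ = a') →
        blockRank p B' = rankUnder p (Subgroup.centralizer ({a'} : Set K)) P' g')
    (hnc : v ∉ Subgroup.center G) :
    rankUnder p (Subgroup.centralizer ({v} : Set G)) P g =
      rankUnder p (Subgroup.centralizer ({a} : Set G) ⊓ Subgroup.centralizer ({v} : Set G)) P g := by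
  classical
  obtain ⟨b, g', hb, hover, hPC, he, hm⟩ := exists_local hMp hB hmax hab hv
  have hg := hmax.1.1
  rw [rankUnder_eq hg.1 hPC hg.2.2.ne_zero hb hover]
  have hlt : Nat.card (Subgroup.centralizer ({v} : Set G)) < Nat.card G := by
    refine lt_of_le_of_ne (Subgroup.card_le_card_group _) fun h => hnc ?_
    have htop := Subgroup.eq_top_of_card_eq _ h
    exact Subgroup.mem_center_iff.2 fun x => Subgroup.mem_centralizer_singleton_iff.1
      (htop ▸ Subgroup.mem_top x : x ∈ Subgroup.centralizer ({v} : Set G))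
  rw [ih _ hlt b _ g' hb hm (fun x hx y hy => Subtype.ext (hab _ hx _ hy)) ⟨a, hPC ha⟩ ha
    (fun t ht => Subtype.ext (hfix _ ((mem_pairStab_subgroup hPC he t).1 ht))), inf_comm]
  exact rankUnder_subgroup hPC hg.1 hab he hg.2.2.ne_zero ha (exists_under_pair hab hg hv ha)

include hMp in
/-- **The rank at an element fixed by the inertial group.** -/
theorem blockRank_eq_rankUnder : ∀ (n : ℕ) (K : Type u) [Group K] [Fintype K], Nat.card K = n →
    ∀ (B : Set (IrrCharacter K)) (P : Subgroup K) (g : (kres M)[K]), IsPBlock M B →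
    IsMaxPairIdem p ⊤ (topEl M B) P g → (∀ x ∈ P, ∀ y ∈ P, x * y = y * x) →
    ∀ a ∈ P, (∀ t ∈ pairStab ⊤ P g, t * a * t⁻¹ = a) →
      blockRank p B = rankUnder p (Subgroup.centralizer ({a} : Set K)) P g := by
  intro n
  induction n using Nat.strong_induction_on with
  | _ n ih =>
    intro K _ _ hn B P g hB hmax hab a ha hfix
    classical
    by_cases hac : a ∈ Subgroup.center K
    · rw [centralizer_eq_top hac, rankUnder_top hB hmax]
    set H := Subgroup.centralizer ({a} : Set K) with hH
    set T := pairStab ⊤ P g with hT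
    have hE := isBlockIdem_topEl (M := M) hB
    have hg := hmax.1.1
    have hTH : T ≤ H := fun t ht => Subgroup.mem_centralizer_singleton_iff.2
      (mul_inv_eq_iff_eq_mul.1 (hfix t ht))
    obtain ⟨f, g', hf, hfover, hPH, he, hm⟩ := exists_local hMp hB hmax hab ha
    set R := Subgroup.closure (commSet T P) with hR
    have hRP : R ≤ P := by
      refine (Subgroup.closure_le _).2 ?_
      rintro _ ⟨t, ht, x, hx, rfl⟩
      exact P.mul_mem ((Subgroup.mem_normalizer_iff.1 ((mem_pairStab.1 ht).1.2) x).1 hx)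
        (P.inv_mem hx)
    have hnc : ∀ r ∈ R, ∀ z, (z = r ∨ z = a * r) → z ∈ Subgroup.center K → z = 1 := by
      intro r hr z hz hzc
      have hzfix : ∀ t ∈ T, t * z * t⁻¹ = z := fun t _ => by
        rw [Subgroup.mem_center_iff.1 hzc t, mul_inv_cancel_right]
      have hrfix : ∀ t ∈ T, t * r * t⁻¹ = r := by
        intro t ht
        rcases hz with rfl | rfl
        · exact hzfix t ht
        · have h := hzfix t ht
          rw [show t * (a * r) * t⁻¹ = (t * a * t⁻¹) * (t * r * t⁻¹) by group, hfix t ht] at h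
          exact mul_left_cancel h
      have hr1 := eq_one_of_fixed hE hmax hab (hRP hr) hr hrfix
      rcases hz with rfl | rfl
      · exact hr1
      · exact absurd (by rwa [hr1, mul_one] at hzc) hac
    -- weights in the group and in the centralizer
    have hweq : ∀ z ∈ P, z ∉ Subgroup.center K → weight p ⊤ P g z = weight p H P g z := by
      intro z hz hzc
      rw [weight, weight, top_inf_eq]
      congr 1
      exact rankUnder_noncentral hMp hB hmax hab ha hz hfix
        (fun L _ _ hL => ih _ (hn ▸ hL) L rfl) hzc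
    have hsub : ∀ (z : K) (hz : z ∈ P),
        weight p ⊤ (P.subgroupOf H) g' ⟨z, hPH hz⟩ = weight p H P g z := fun z hz =>
      weight_subgroup hPH hTH hg.1 hab he hg.2.2.ne_zero hz (exists_under_pair hab hg ha hz)
    have hG := sum_weight_coset hMp hB hmax hab R hRP Subgroup.subset_closure ha
    have hH' := sum_weight_coset hMp hf hm (fun x hx y hy => Subtype.ext (hab _ hx _ hy))
      (R.subgroupOf H) (fun x hx => hRP hx) (by
        rintro _ ⟨t, ht, x, hx, rfl⟩
        exact Subgroup.subset_closure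
          ⟨(t : K), (mem_pairStab_subgroup hPH he t).1 ht, (x : K), hx, rfl⟩)
      (a := ⟨a, hPH ha⟩) ha
    have hRH : R ≤ H := hRP.trans hPH
    have hH'' : ∑ r : R, weight p H P g (a * r) = ∑ r : R, weight p H P g (r : K) := by
      have e1 := Fintype.sum_equiv (Subgroup.subgroupOfEquivOfLe hRH).toEquiv
        (fun r : R.subgroupOf H => weight p ⊤ (P.subgroupOf H) g' (⟨a, hPH ha⟩ * (r : H)))
        (fun r : R => weight p H P g (a * r))
        (fun r => hsub (a * ((r : H) : K)) (P.mul_mem ha (hRP r.2)))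
      have e2 := Fintype.sum_equiv (Subgroup.subgroupOfEquivOfLe hRH).toEquiv
        (fun r : R.subgroupOf H => weight p ⊤ (P.subgroupOf H) g' (r : H))
        (fun r : R => weight p H P g (r : K))
        (fun r => hsub ((r : H) : K) (hRP r.2))
      rw [← e1, ← e2]
      exact hH'
    have key : ∑ r : R, weight p ⊤ P g (r : K) = ∑ r : R, weight p H P g (r : K) := by
      rw [← hG, ← hH'']
      refine Finset.sum_congr rfl fun r _ => hweq _ (P.mul_mem ha (hRP r.2)) fun hc => ?_
      have h1 := hnc r r.2 _ (Or.inr rfl) hc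
      exact hac (by
        have hr1 : (r : K) = a⁻¹ := eq_inv_of_mul_eq_one_right h1
        have := hnc r r.2
        have hr : (r : K) = 1 := eq_one_of_fixed hE hmax hab (hRP r.2) r.2 (fun t ht => by
          rw [hr1]
          calc t * a⁻¹ * t⁻¹ = (t * a * t⁻¹)⁻¹ := by group
            _ = a⁻¹ := by rw [hfix t ht])
        rw [hr, mul_one] at h1
        rw [h1]; exact one_mem _)
    rw [← Finset.add_sum_erase _ _ (Finset.mem_univ (1 : R)),
      ← Finset.add_sum_erase _ _ (Finset.mem_univ (1 : R)),
      Finset.sum_congr rfl (fun r hr => hweq _ (hRP r.2) fun hc => (Finset.mem_erase.1 hr).1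
        (Subtype.ext (hnc r r.2 _ (Or.inl rfl) hc))), add_left_inj] at key
    rw [OneMemClass.coe_one, weight, weight, centralizer_one_eq_top, inf_top_eq, inf_top_eq,
      inf_top_eq, rankUnder_top hB hmax] at key
    exact Nat.eq_of_mul_eq_mul_right Nat.card_pos key

include hMp in
/-- **Ranks and numbers of characters at an element fixed by the inertial group.** -/
theorem counts_of_fixed (hB : IsPBlock M B) (hmax : IsMaxPairIdem p ⊤ (topEl M B) P g)
    (hab : ∀ x ∈ P, ∀ y ∈ P, x * y = y * x) {a : G} (ha : a ∈ P)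
    (hfix : ∀ t ∈ pairStab ⊤ P g, t * a * t⁻¹ = a)
    {f : Set (IrrCharacter (Subgroup.centralizer ({a} : Set G)))} (hf : IsPBlock M f)
    (hover : BrOver P g (subEl M _ f)) :
    blockRank p B = blockRank p f ∧ Nat.card B = Nat.card f := by
  classical
  have hg := hmax.1.1
  obtain ⟨b, g', hb, hbover, hPH, he, hm⟩ := exists_local hMp hB hmax hab ha
  obtain rfl : b = f := subEl_injective hb hf (brOver_unique hg.1 hPH hg.2.2.ne_zero
    (isBlockIdem_subEl hb) (isBlockIdem_subEl hf) hbover hover)
  have hl : blockRank p B = blockRank p b := by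
    rw [blockRank_eq_rankUnder hMp _ G rfl B P g hB hmax hab a ha hfix,
      rankUnder_eq hg.1 hPH hg.2.2.ne_zero hb hbover]
  refine ⟨hl, ?_⟩
  have hTH : pairStab ⊤ P g ≤ (Subgroup.centralizer ({a} : Set G)) := fun t ht => Subgroup.mem_centralizer_singleton_iff.2
    (mul_inv_eq_iff_eq_mul.1 (hfix t ht))
  have h1 := natCard_eq_sum_weight hMp hB hmax hab
  have h2 := natCard_eq_sum_weight hMp hb hm (fun x hx y hy => Subtype.ext (hab _ hx _ hy))
  have hT : Nat.card (pairStab ⊤ (P.subgroupOf (Subgroup.centralizer ({a} : Set G))) g') = Nat.card (pairStab ⊤ P g) := by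
    rw [← Nat.card_congr (Subgroup.subgroupOfEquivOfLe hTH).toEquiv]
    congr 2
    ext t
    rw [mem_pairStab_subgroup hPH he, Subgroup.mem_subgroupOf]
  have h3 : ∑ v : P.subgroupOf (Subgroup.centralizer ({a} : Set G)), weight p ⊤ (P.subgroupOf (Subgroup.centralizer ({a} : Set G))) g' (v : (Subgroup.centralizer ({a} : Set G))) =
      ∑ v : P, weight p ⊤ P g (v : G) := by
    refine Fintype.sum_equiv (Subgroup.subgroupOfEquivOfLe hPH).toEquiv _ _ fun v => ?_
    set z : G := ((v : (Subgroup.centralizer ({a} : Set G))) : G) with hz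
    have hzP : z ∈ P := v.2
    show weight p ⊤ (P.subgroupOf (Subgroup.centralizer ({a} : Set G))) g' ⟨z, hPH hzP⟩ = weight p ⊤ P g z
    rw [weight_subgroup hPH hTH hg.1 hab he hg.2.2.ne_zero hzP (exists_under_pair hab hg ha hzP),
      weight, weight, top_inf_eq]
    congr 1
    by_cases hzc : z ∈ Subgroup.center G
    · rw [centralizer_eq_top hzc, inf_top_eq, rankUnder_top hB hmax,
        rankUnder_eq hg.1 hPH hg.2.2.ne_zero hb hbover, hl]
    · exact (rankUnder_noncentral hMp hB hmax hab ha hzP hfix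
        (fun L _ _ _ => blockRank_eq_rankUnder hMp _ L rfl) hzc).symm
  rw [h3, hT, ← h1] at h2
  exact (Nat.eq_of_mul_eq_mul_left Nat.card_pos h2).symm

end CfsgLib.Blocks.InertiaFixed
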