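import Cfsg.Agent.Blocks.InertiaFixed.Orbits
import Cfsg.Agent.Blocks.Star.Parts
import Cfsg.Agent.Blocks.Subsection.MajorRankTwo

/-!
# The trace of the star product with a stable function

For a block `B` with abelian defect group, summing `⟨χ * η, χ⟩` over `B` gives the values of `η`
on the defect group weighted by the ranks of the subsections.  The sum vanishes when `η` is a
nontrivial stable linear character.
-/

set_option autoImplicit false
set_option linter.style.haveILetI false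
set_option maxHeartbeats 1000000
open Cfsg
open scoped MonoidAlgebra ComplexConjugate

namespace CfsgLib.Blocks.InertiaFixed

universe u

variable {M : Ideal AlgInt} [hM : M.IsMaximal] {G : Type u} [Group G] [Fintype G]
  {p : ℕ} [hp : Fact p.Prime] [CharP (kres M) p] {B : Set (IrrCharacter G)} {P : Subgroup G}
  {g : (kres M)[G]}

omit hp [CharP (kres M) p] in
/-- The ranks are invariant under conjugation. -/
theorem rankUnder_conj [Fact p.Prime] [CharP (kres M) p] {S P : Subgroup G} (hPp : IsPGroup p P)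
    (hPS : P ≤ S) {g : (kres M)[G]} (hg : g ≠ 0) {b : Set (IrrCharacter S)} (hb : IsPBlock M b)
    (hover : BrOver P g (subEl M S b)) (x : G) :
    rankUnder p S P g = rankUnder p (S.map (MulAut.conj x).toMonoidHom)
      (P.map (MulAut.conj x).toMonoidHom) (Blocks.conjA x g) := by
  obtain ⟨b', hb', he⟩ := exists_subEl_eq (M := M) ((isBlockIdem_subEl hb).conjA x)
  rw [rankUnder_map (φ := (MulAut.conj x).toMonoidHom) (MulAut.conj x).injective hPp hPS hg
    ⟨b', hb', ?_⟩, ← conjA_eq_emb]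
  unfold BrOver at hover ⊢
  rw [he, ← conjA_eq_emb, ← conjA_brTrunc, ← map_mul, hover]

/-- The weight of an element of the defect group. -/
noncomputable def weight (p : ℕ) (S P : Subgroup G) (g : (kres M)[G]) (v : G) : ℕ :=
  rankUnder p (S ⊓ Subgroup.centralizer ({v} : Set G)) P g *
    Nat.card (pairStab ⊤ P g ⊓ Subgroup.centralizer ({v} : Set G) : Subgroup G)

variable (hMp : IsPModular p M) (hB : IsPBlock M B)
  (hmax : IsMaxPairIdem p ⊤ (topEl M B) P g) (hab : ∀ x ∈ P, ∀ y ∈ P, x * y = y * x)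

include hMp hB in
/-- The characters of a block on one section. -/
theorem sum_lval_eq_rank {u : G} (hu : ∃ e : ℕ, orderOf u = p ^ e)
    [Fintype (Subgroup.centralizer (Subgroup.zpowers u : Set G))]
    {b : Set (IrrCharacter (Subgroup.centralizer (Subgroup.zpowers u : Set G)))}
    (hb : IsPBlock M b) (hf : BrOver (Subgroup.zpowers u) (subEl M _ b) (topEl M B)) :
    ∑ χ ∈ B.toFinite.toFinset, ∑ s ∈ regSet p (Subgroup.centralizer (Subgroup.zpowers u : Set G)),
      lval (χ : G → ℂ) (u * (s : G)) (subEl M _ b) *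
        conj (lval (χ : G → ℂ) (u * (s : G)) (subEl M _ b)) =
      (Nat.card (Subgroup.centralizer (Subgroup.zpowers u : Set G)) : ℂ) *
        (blockRank p b : ℂ) := by
  have hC : Subgroup.centralizer (Subgroup.zpowers u : Set G) =
      Subgroup.centralizer ({u} : Set G) := HeightZero.centralizer_zpowers_eq u
  have hQC : Subgroup.zpowers u ≤ Subgroup.centralizer (Subgroup.zpowers u : Set G) := by
    rw [hC]
    exact Subgroup.zpowers_le.2 (Subgroup.mem_centralizer_singleton_iff.2 rfl)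
  have hind : IsInducedBlock M _ b B := (isInducedBlock_iff_brOver hMp
    (KleinFour.isPGroup_zpowers hu) hQC le_rfl (Subgroup.centralizer_le_normalizer _) hb hB).2 hf
  rw [← sum_block_subsection hMp hC hu hind]
  refine Finset.sum_congr rfl fun χ _ => ?_
  rw [← Contrib.sum_blockPart_mul_conj hMp hb
    (isClassFunction_translate' (CfsgLib.Chars.isClassFunction_coe χ) u)
    (isClassFunction_translate' (CfsgLib.Chars.isClassFunction_coe χ) u)]
  refine Finset.sum_congr rfl fun s hs => ?_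
  rw [lval_subEl hMp (CfsgLib.Chars.isClassFunction_coe χ) hu hb (mem_regSet.1 hs)]

open scoped Classical in
include hMp hB hmax in
/-- An inner product with the star product, by sections. -/
theorem classInner_starFun_eq {χ : IrrCharacter G} (hχ : χ ∈ B) {η : G → ℂ} :
    (Nat.card G : ℂ) * classInner (starFun p (topEl M B) P g (χ : G → ℂ) η) (χ : G → ℂ) =
      ∑ u ∈ Finset.univ.filter (fun u : G => ∃ e : ℕ, orderOf u = p ^ e),
        ∑ f ∈ blocksOver (Subgroup.zpowers u) (topEl M B), etaAt p P g η u f *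
          ∑ s ∈ regSet p (Subgroup.centralizer (Subgroup.zpowers u : Set G)),
            lval (χ : G → ℂ) (u * (s : G)) f * conj (lval (χ : G → ℂ) (u * (s : G)) f) := by
  have h1 := starFun_one hMp hB hmax hχ
  rw [classInner, ← mul_assoc, mul_inv_cancel₀ (Nat.cast_ne_zero.2 Nat.card_pos.ne'), one_mul]
  have h2 : ∑ x, starFun p (topEl M B) P g (χ : G → ℂ) η x * conj ((χ : G → ℂ) x) =
      ∑ x, starFun p (topEl M B) P g (χ : G → ℂ) η x *
        conj (starFun p (topEl M B) P g (χ : G → ℂ) (fun _ => 1) x) := by rw [h1]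
  rw [h2, sum_eq_sum_sections (p := p)]
  refine Finset.sum_congr rfl fun u hu => ?_
  have hu' := (Finset.mem_filter.mp hu).2
  rw [sum_section_starFun hMp (CfsgLib.Chars.isCharacter_coe χ) η (fun _ => 1) hu']
  refine Finset.sum_congr rfl fun f hf => ?_
  obtain ⟨x, hx⟩ := exists_conj_of_mem_blocksOver (isBlockIdem_topEl hB) hmax hu' hf
  rw [etaAt_eq (η := fun _ : G => (1 : ℂ)) (fun _ _ _ _ => rfl) hx, map_one, mul_one]

include hMp hB hmax hab in
/-- The trace of the star product with a stable function. -/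
theorem sum_classInner_starFun {η : G → ℂ} (hη : IsStableFn p P g η) [Fintype P] :
    (Nat.card (pairStab ⊤ P g) : ℂ) * ∑ χ ∈ B.toFinite.toFinset,
      classInner (starFun p (topEl M B) P g (χ : G → ℂ) η) (χ : G → ℂ) =
      ∑ v : P, (weight p ⊤ P g (v : G) : ℂ) * η v := by
  classical
  set E := topEl M B with hEd
  set T := pairStab ⊤ P g with hTd
  have hE : IsBlockIdem ⊤ E := isBlockIdem_topEl hB
  have hg := hmax.1.1
  choose bl hbl hover hle using fun v : P =>
    exists_under (Q := Subgroup.zpowers (v : G)) hab hg (Subgroup.zpowers_le.2 v.2)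
  set fv : P → (kres M)[G] := fun v => subEl M _ (bl v) with hfv
  have hpel : ∀ v : P, ∃ e : ℕ, orderOf (v : G) = p ^ e := fun v => exists_orderOf_eq_pow hg.1 v.2
  let D : Finset (Σ _ : G, (kres M)[G]) :=
    (Finset.univ.filter fun u : G => ∃ e : ℕ, orderOf u = p ^ e).sigma
      fun u => blocksOver (Subgroup.zpowers u) E
  let π : P × G → Σ _ : G, (kres M)[G] := fun y =>
    ⟨y.2 * (y.1 : G) * y.2⁻¹, Blocks.conjA y.2 (fv y.1)⟩
  have hπ : ∀ y ∈ (Finset.univ : Finset (P × G)), π y ∈ D := by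
    rintro ⟨v, x⟩ -
    simp only [D, π, Finset.mem_sigma, Finset.mem_filter, Finset.mem_univ, true_and]
    have hpo : IsPairOfIdem p ⊤ E (Subgroup.zpowers (v : G)) (fv v) :=
      ((hle v).pairOf_iff hE hg).2 hmax.1
    have h2 := hpo.conjA hE.1 (Subgroup.mem_top x)
    rw [KleinFour.zpowers_map_conj] at h2
    refine ⟨?_, mem_blocksOver.mpr ⟨h2.1.2.2, h2.2⟩⟩
    obtain ⟨e, he⟩ := hpel v
    exact ⟨e, by
      rw [← he]
      exact orderOf_injective (MulAut.conj x).toMonoidHom (MulAut.conj x).injective (v : G)⟩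
  -- the sum of the sections in terms of `D`
  have hL : ∀ χ ∈ B.toFinite.toFinset,
      (Nat.card G : ℂ) * classInner (starFun p E P g (χ : G → ℂ) η) (χ : G → ℂ) =
        ∑ d ∈ D, etaAt p P g η d.1 d.2 *
          ∑ s ∈ regSet p (Subgroup.centralizer (Subgroup.zpowers d.1 : Set G)),
            lval (χ : G → ℂ) (d.1 * (s : G)) d.2 * conj (lval (χ : G → ℂ) (d.1 * (s : G)) d.2) := by
    intro χ hχ
    rw [classInner_starFun_eq hMp hB hmax (B.toFinite.mem_toFinset.1 hχ), Finset.sum_sigma]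
  have hn : (Nat.card G : ℂ) ≠ 0 := Nat.cast_ne_zero.2 Nat.card_pos.ne'
  refine mul_left_cancel₀ hn ?_
  rw [mul_left_comm, Finset.mul_sum (a := (Nat.card G : ℂ)), Finset.sum_congr rfl hL,
    Finset.sum_comm]
  have hR : (Nat.card G : ℂ) * ∑ v : P, (weight p ⊤ P g (v : G) : ℂ) * η v =
      ∑ y : P × G, (weight p ⊤ P g (y.1 : G) : ℂ) * η y.1 := by
    rw [Fintype.sum_prod_type, Finset.mul_sum]
    refine Finset.sum_congr rfl fun v _ => ?_
    show _ = ∑ _y : G, (weight p ⊤ P g (v : G) : ℂ) * η v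
    rw [Finset.sum_const, Finset.card_univ, nsmul_eq_mul, Nat.card_eq_fintype_card]
  rw [hR, ← Finset.sum_fiberwise_of_maps_to hπ, Finset.mul_sum]
  refine Finset.sum_congr rfl ?_
  rintro ⟨u, f⟩ hd
  simp only [D, Finset.mem_sigma, Finset.mem_filter, Finset.mem_univ, true_and] at hd
  obtain ⟨hu, hf⟩ := hd
  obtain ⟨x₁, hx₁⟩ := exists_conj_of_mem_blocksOver hE hmax hu hf
  rw [← Finset.mul_sum, ← mul_assoc]
  -- a point of the fibre
  set v₀ : P := ⟨x₁ * u * x₁⁻¹, hx₁.le ⟨u, Subgroup.mem_zpowers u, rfl⟩⟩ with hv₀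
  have hfv₀ : Blocks.conjA x₁ f = fv v₀ := by
    have h := hx₁
    rw [KleinFour.zpowers_map_conj] at h
    exact h.unique hg (hle v₀)
  set x₀ := x₁⁻¹ with hx₀
  have hbu : ∀ v : P, ∀ x, π (v, x) = ⟨u, f⟩ ↔ x * (v : G) * x⁻¹ = u ∧ Blocks.conjA x (fv v) = f := by
    intro v x
    constructor
    · intro h; exact ⟨congrArg Sigma.fst h, eq_of_heq (Sigma.mk.inj_iff.1 h).2⟩
    · rintro ⟨h1, h2⟩; simp only [π, h1, h2]
  have hbase : x₀ * (v₀ : G) * x₀⁻¹ = u ∧ Blocks.conjA x₀ (fv v₀) = f := by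
    refine ⟨?_, ?_⟩
    · rw [hx₀, hv₀]; group
    · rw [← hfv₀, hx₀, conjA_conjA, inv_mul_cancel, conjA_one_left]
  set fib : Finset (P × G) := Finset.univ.filter fun y => π y = ⟨u, f⟩ with hfib
  have hfibmem : ∀ y ∈ fib, y.2 * (y.1 : G) * y.2⁻¹ = u ∧ Blocks.conjA y.2 (fv y.1) = f :=
    fun y hy => (hbu y.1 y.2).1 (Finset.mem_filter.1 hy).2
  have hstab : ∀ y ∈ fib, ∃ t ∈ T, t * (v₀ : G) * t⁻¹ = (y.1 : G) := by
    rintro ⟨v, x⟩ hy
    obtain ⟨h1, h2⟩ := hfibmem _ hy
    have hd : x⁻¹ * x₀ * (v₀ : G) * (x⁻¹ * x₀)⁻¹ = v := by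
      calc x⁻¹ * x₀ * (v₀ : G) * (x⁻¹ * x₀)⁻¹ = x⁻¹ * (x₀ * (v₀ : G) * x₀⁻¹) * x := by group
        _ = v := by rw [hbase.1, ← h1]; group
    obtain ⟨t, ht, htv⟩ := exists_stab_of_carries hE hmax hab
      (v := (v₀ : G)) (x := x⁻¹ * x₀) ⟨fv v₀, hle v₀, by
        rw [KleinFour.zpowers_map_conj, hd, ← conjA_conjA, hbase.2, ← h2, conjA_conjA,
          inv_mul_cancel, conjA_one_left]
        exact hle v⟩
    exact ⟨t, ht, htv.trans hd⟩
  -- conjugation by the inertial group
  have hTfv : ∀ t ∈ T, ∀ v w : P, t * (v : G) * t⁻¹ = w → Blocks.conjA t (fv v) = fv w := by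
    intro t ht v w hvw
    obtain ⟨⟨-, htN⟩, htg⟩ := mem_pairStab.1 ht
    have h := (hle v).conjA (x := t) trivial
    rw [KleinFour.zpowers_map_conj, hvw, map_conj_eq_self_of_mem_normalizer htN, htg] at h
    exact h.unique hg (hle w)
  -- the constant values on the fibre
  obtain ⟨b, hb, hbf⟩ := exists_subEl_eq (M := M) (H := Subgroup.centralizer (Subgroup.zpowers u : Set G))
    (e := f) (by have := (mem_blocksOver.1 hf).1; rwa [top_inf_eq] at this)
  have hval : ∀ y ∈ fib, rankUnder p ((⊤ : Subgroup G) ⊓ Subgroup.centralizer ({(y.1 : G)} : Set G)) P g =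
      blockRank p b ∧ etaAt p P g η u f = η y.1 := by
    rintro ⟨v, x⟩ hy
    obtain ⟨h1, h2⟩ := hfibmem _ hy
    refine ⟨?_, ?_⟩
    · show rankUnder p ((⊤ : Subgroup G) ⊓ Subgroup.centralizer ({(v : G)} : Set G)) P g = _
      rw [top_inf_eq, ← HeightZero.centralizer_zpowers_eq]
      have hPC : P ≤ Subgroup.centralizer (Subgroup.zpowers (v : G) : Set G) :=
        KleinFour.le_centralizer_of_abelian hab (Subgroup.zpowers_le.2 v.2)
      rw [rankUnder_conj hg.1 hPC hg.2.2.ne_zero (hbl v) (hover v) x, map_conj_centralizer,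
        KleinFour.zpowers_map_conj, h1]
      have hPx : P.map (MulAut.conj x).toMonoidHom ≤ Subgroup.centralizer (Subgroup.zpowers u : Set G) := by
        refine (Subgroup.map_mono hPC).trans ?_
        rw [map_conj_centralizer, KleinFour.zpowers_map_conj, h1]
      refine rankUnder_eq (hg.1.map _) hPx
        (fun h => hg.2.2.ne_zero ((map_eq_zero_iff _ (Blocks.conjA x).injective).1 h)) hb ?_
      unfold BrOver
      rw [hbf, ← h2, ← conjA_brTrunc, ← map_mul]
      exact congrArg _ (hover v)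
    · have h3 : PairLE p ⊤ ((Subgroup.zpowers u).map (MulAut.conj x⁻¹).toMonoidHom)
          (Blocks.conjA x⁻¹ f) P g := by
        rw [KleinFour.zpowers_map_conj, show x⁻¹ * u * x⁻¹⁻¹ = v by rw [← h1]; group, ← h2,
          conjA_conjA, inv_mul_cancel, conjA_one_left]
        exact hle v
      rw [etaAt_eq hη h3]
      show _ = η (v : G)
      rw [← h1]
      congr 1
      group
  have hcongr : ∀ y ∈ fib, (weight p ⊤ P g (y.1 : G) : ℂ) * η y.1 =
      (blockRank p b : ℂ) * etaAt p P g η u f *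
        (Nat.card (T ⊓ Subgroup.centralizer ({(y.1 : G)} : Set G) : Subgroup G) : ℂ) := by
    intro y hy
    obtain ⟨h1, h2⟩ := hval y hy
    rw [weight, Nat.cast_mul, h1, h2, hTd]
    ring
  rw [Finset.sum_congr rfl hcongr, ← Finset.mul_sum, ← Nat.cast_sum]
  -- counting the fibre
  have hcount : ∑ y ∈ fib, Nat.card (T ⊓ Subgroup.centralizer ({(y.1 : G)} : Set G) : Subgroup G) =
      Nat.card T * Nat.card (Subgroup.centralizer (Subgroup.zpowers u : Set G)) := by
    choose tv htv htvv using hstab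
    rw [← Finset.sum_coe_sort fib, ← Nat.card_sigma, ← Nat.card_prod]
    have hC : Subgroup.centralizer (Subgroup.zpowers u : Set G) =
        Subgroup.centralizer ({u} : Set G) := HeightZero.centralizer_zpowers_eq u
    let Ψ : (Σ y : fib, (T ⊓ Subgroup.centralizer ({((y : P × G).1 : G)} : Set G) : Subgroup G)) →
        T × Subgroup.centralizer (Subgroup.zpowers u : Set G) := fun z =>
      (⟨z.2.1 * tv z.1.1 z.1.2, T.mul_mem z.2.2.1 (htv _ z.1.2)⟩,
        ⟨z.1.1.2 * z.2.1 * tv z.1.1 z.1.2 * x₀⁻¹, by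
          obtain ⟨⟨⟨v, x⟩, hy⟩, s, hsT, hsC⟩ := z
          rw [hC, Subgroup.mem_centralizer_singleton_iff]
          obtain ⟨h1, -⟩ := hfibmem _ hy
          have hs := Subgroup.mem_centralizer_singleton_iff.1 hsC
          have ht := htvv _ hy
          simp only at hs ht h1 ⊢
          calc x * s * tv _ hy * x₀⁻¹ * u
              = x * s * tv _ hy * x₀⁻¹ * (x₀ * (v₀ : G) * x₀⁻¹) := by rw [hbase.1]
            _ = x * (s * (tv _ hy * (v₀ : G) * (tv _ hy)⁻¹)) * tv _ hy * x₀⁻¹ := by group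
            _ = x * ((v : G) * s) * tv _ hy * x₀⁻¹ := by rw [ht, hs]
            _ = (x * (v : G) * x⁻¹) * (x * s * tv _ hy * x₀⁻¹) := by group
            _ = u * (x * s * tv _ hy * x₀⁻¹) := by rw [h1]⟩)
    refine Nat.card_congr (Equiv.ofBijective Ψ ⟨?_, ?_⟩)
    · rintro ⟨⟨⟨v, x⟩, hy⟩, s, hsT, hsC⟩ ⟨⟨⟨v', x'⟩, hy'⟩, s', hsT', hsC'⟩ h
      simp only [Ψ, Prod.mk.injEq, Subtype.mk.injEq] at h
      obtain ⟨h1, h2⟩ := h
      have hv : v = v' := by
        refine Subtype.ext ?_
        have e1 : (s * tv _ hy) * (v₀ : G) * (s * tv _ hy)⁻¹ = v := by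
          calc (s * tv _ hy) * (v₀ : G) * (s * tv _ hy)⁻¹
              = s * (tv _ hy * (v₀ : G) * (tv _ hy)⁻¹) * s⁻¹ := by group
            _ = v := by rw [htvv _ hy, Subgroup.mem_centralizer_singleton_iff.1 hsC,
              mul_inv_cancel_right]
        have e2 : (s' * tv _ hy') * (v₀ : G) * (s' * tv _ hy')⁻¹ = v' := by
          calc (s' * tv _ hy') * (v₀ : G) * (s' * tv _ hy')⁻¹
              = s' * (tv _ hy' * (v₀ : G) * (tv _ hy')⁻¹) * s'⁻¹ := by group
            _ = v' := by rw [htvv _ hy', Subgroup.mem_centralizer_singleton_iff.1 hsC',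
              mul_inv_cancel_right]
        rw [← e1, h1, e2]
      subst hv
      have hx : x = x' := by
        simp only [mul_assoc] at h2
        rw [← mul_assoc s, ← mul_assoc s', h1] at h2
        exact mul_right_cancel h2
      subst hx
      obtain rfl : s = s' := mul_right_cancel h1
      rfl
    · rintro ⟨⟨t, ht⟩, c, hc⟩
      have htN := (mem_pairStab.1 ht).1.2
      let v : P := ⟨t * (v₀ : G) * t⁻¹, (Subgroup.mem_normalizer_iff.1 htN _).1 v₀.2⟩
      have hy : ((v, c * x₀ * t⁻¹) : P × G) ∈ fib := by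
        refine Finset.mem_filter.2 ⟨Finset.mem_univ _, (hbu _ _).2 ⟨?_, ?_⟩⟩
        · show c * x₀ * t⁻¹ * (t * (v₀ : G) * t⁻¹) * (c * x₀ * t⁻¹)⁻¹ = u
          calc c * x₀ * t⁻¹ * (t * (v₀ : G) * t⁻¹) * (c * x₀ * t⁻¹)⁻¹
              = c * (x₀ * (v₀ : G) * x₀⁻¹) * c⁻¹ := by group
            _ = u := by
              rw [hbase.1]
              rw [hC] at hc
              rw [Subgroup.mem_centralizer_singleton_iff.1 hc, mul_inv_cancel_right]
        · rw [← hTfv t ht v₀ v rfl, conjA_conjA, inv_mul_cancel_right, ← conjA_conjA, hbase.2,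
            ← hbf]
          exact isFixedBy_iff_conjA.1 (isBlockIdem_subEl hb).mem.2 c hc
      refine ⟨⟨⟨_, hy⟩, t * (tv _ hy)⁻¹, T.mul_mem ht (T.inv_mem (htv _ hy)), ?_⟩, ?_⟩
      · have h := htvv _ hy
        show t * (tv _ hy)⁻¹ ∈ Subgroup.centralizer ({(v : G)} : Set G)
        rw [Subgroup.mem_centralizer_singleton_iff]
        simp only [v] at h ⊢
        calc t * (tv _ hy)⁻¹ * (t * (v₀ : G) * t⁻¹)
            = t * (tv _ hy)⁻¹ * (tv _ hy * (v₀ : G) * (tv _ hy)⁻¹) := by rw [h]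
          _ = t * (v₀ : G) * t⁻¹ * (t * (tv _ hy)⁻¹) := by group
      · simp only [Ψ, Prod.mk.injEq, Subtype.mk.injEq]
        exact ⟨inv_mul_cancel_right _ _, by group⟩
  rw [hcount, Nat.cast_mul, ← hbf, sum_lval_eq_rank hMp hB hu hb
    (by rw [hbf]; exact (mem_blocksOver.1 hf).2)]
  ring

include hMp hB hmax hab in
/-- The star product with a nontrivial stable linear character moves every character. -/
theorem classInner_starFun_eq_zero {χ : IrrCharacter G} (hχ : χ ∈ B) {η : G → ℂ}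
    (hη : IsStableGen p P g η) (h1 : η 1 = 1) (hu : ∀ v ∈ P, η v * conj (η v) = 1) {v : G}
    (hv : v ∈ P) (hne : η v ≠ 1) :
    classInner (starFun p (topEl M B) P g (χ : G → ℂ) η) (χ : G → ℂ) = 0 := by
  classical
  obtain ⟨ψ, hψ, hψe⟩ := exists_irr_starFun hMp hB hmax hχ hη (d := 1) (by simpa using h1)
    one_ne_zero (classInner_starFun_self hMp hB hmax hχ hη.stable hu)
  rw [← hψe, CfsgLib.Chars.classInner_irr, if_neg]
  intro hψχ
  rw [hψχ] at hψe
  clear hψχ hψ
  set E := topEl M B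
  have hE : IsBlockIdem ⊤ E := isBlockIdem_topEl hB
  have hg := hmax.1.1
  set C := Subgroup.centralizer (Subgroup.zpowers v : Set G) with hCd
  have hvo := exists_orderOf_eq_pow hg.1 hv
  obtain ⟨b, hb, hover, hle⟩ :=
    exists_under (Q := Subgroup.zpowers v) hab hg (Subgroup.zpowers_le.2 hv)
  have hpo := (hle.pairOf_iff hE hg).2 hmax.1
  have hfmem : subEl M C b ∈ blocksOver (Subgroup.zpowers v) E :=
    mem_blocksOver.mpr ⟨hpo.1.2.2, hpo.2⟩
  -- the norms of the parts
  set N : (kres M)[G] → ℝ := fun f => ∑ s ∈ regSet p C,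
    Complex.normSq (lval (χ : G → ℂ) (v * (s : G)) f) with hNd
  have hN : ∀ f, (N f : ℂ) = ∑ s ∈ regSet p C,
      lval (χ : G → ℂ) (v * (s : G)) f * conj (lval (χ : G → ℂ) (v * (s : G)) f) := fun f => by
    rw [hNd, Complex.ofReal_sum]
    exact Finset.sum_congr rfl fun s _ => (Complex.mul_conj _).symm
  have hone : ∀ f ∈ blocksOver (Subgroup.zpowers v) E, etaAt p P g (fun _ => (1 : ℂ)) v f = 1 :=
    fun f hf => by
      obtain ⟨x, hx⟩ := exists_conj_of_mem_blocksOver hE hmax hvo hf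
      exact etaAt_eq (fun _ _ _ _ => rfl) hx
  have hpair : ∀ θ θ' : G → ℂ, starFun p E P g (χ : G → ℂ) θ = (χ : G → ℂ) →
      starFun p E P g (χ : G → ℂ) θ' = (χ : G → ℂ) →
      ∑ f ∈ blocksOver (Subgroup.zpowers v) E,
        etaAt p P g θ v f * conj (etaAt p P g θ' v f) * (N f : ℂ) =
      ∑ s ∈ regSet p C, (χ : G → ℂ) (v * (s : G)) * conj ((χ : G → ℂ) (v * (s : G))) := by
    intro θ θ' e e'
    have h := sum_section_starFun (E := E) (P := P) (g := g) hMp
      (CfsgLib.Chars.isCharacter_coe χ) θ θ' hvo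
    rw [e, e'] at h
    rw [h]
    exact Finset.sum_congr rfl fun f _ => by rw [hN]
  have hone' := starFun_one hMp hB hmax hχ
  have hzero : ∑ f ∈ blocksOver (Subgroup.zpowers v) E,
      ((Complex.normSq (etaAt p P g η v f - 1) * N f : ℝ) : ℂ) = 0 := by
    have e : ∀ f ∈ blocksOver (Subgroup.zpowers v) E,
        ((Complex.normSq (etaAt p P g η v f - 1) * N f : ℝ) : ℂ) =
          etaAt p P g η v f * conj (etaAt p P g η v f) * (N f : ℂ) -
            etaAt p P g η v f * conj (etaAt p P g (fun _ => (1 : ℂ)) v f) * (N f : ℂ) -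
            (etaAt p P g (fun _ => (1 : ℂ)) v f * conj (etaAt p P g η v f) * (N f : ℂ) -
            etaAt p P g (fun _ => (1 : ℂ)) v f *
              conj (etaAt p P g (fun _ => (1 : ℂ)) v f) * (N f : ℂ)) := by
      intro f hf
      rw [Complex.ofReal_mul, ← Complex.mul_conj, map_sub, hone f hf, map_one]
      ring
    rw [Finset.sum_congr rfl e, Finset.sum_sub_distrib, Finset.sum_sub_distrib,
      Finset.sum_sub_distrib, hpair _ _ hψe.symm hψe.symm, hpair _ _ hψe.symm hone',
      hpair _ _ hone' hψe.symm, hpair _ _ hone' hone']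
    ring
  rw [← Complex.ofReal_sum, Complex.ofReal_eq_zero, Finset.sum_eq_zero_iff_of_nonneg fun f _ =>
    mul_nonneg (Complex.normSq_nonneg _)
      (Finset.sum_nonneg fun s _ => Complex.normSq_nonneg _)] at hzero
  have h0 := hzero _ hfmem
  have hηv : etaAt p P g η v (subEl M C b) = η v := by
    have hle' : PairLE p ⊤ ((Subgroup.zpowers v).map (MulAut.conj (1 : G)).toMonoidHom)
        (Blocks.conjA 1 (subEl M C b)) P g := by rwa [map_conj_one, conjA_one_left]
    rw [etaAt_eq hη.stable hle', one_mul, inv_one, mul_one]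
  rw [hηv, mul_eq_zero, Complex.normSq_eq_zero, sub_eq_zero] at h0
  have h0' := h0.resolve_left hne
  rw [Finset.sum_eq_zero_iff_of_nonneg fun s _ => Complex.normSq_nonneg _] at h0'
  have hsect : ∀ s ∈ regSet p C, Contrib.sectPart b v χ s = 0 := by
    intro s hs
    have h := h0' s hs
    rw [Complex.normSq_eq_zero,
      lval_subEl hMp (CfsgLib.Chars.isClassFunction_coe χ) hvo hb (mem_regSet.1 hs)] at h
    exact h
  -- the subsection is major
  have hC : C = Subgroup.centralizer ({v} : Set G) := HeightZero.centralizer_zpowers_eq v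
  have hQC : Subgroup.zpowers v ≤ C := by
    rw [hC]
    exact Subgroup.zpowers_le.2 (Subgroup.mem_centralizer_singleton_iff.2 rfl)
  have hind : IsInducedBlock M C b B := (isInducedBlock_iff_brOver hMp
    (KleinFour.isPGroup_zpowers hvo) hQC le_rfl (Subgroup.centralizer_le_normalizer _) hb hB).2
    hpo.2
  have hPC : P ≤ C := KleinFour.le_centralizer_of_abelian hab (Subgroup.zpowers_le.2 hv)
  have hDb := (isDefectGroup_subgroupOf_iff hPC hb).mpr
    (KleinFour.maxPair_centralizer hE hmax hab hle).2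
  have hDB := (isDefectGroup_topEl_iff (M := M) hB P).2 (hmax.isDefectGroupIdem hE)
  have hmaj : blockDefect p b = blockDefect p B := by
    have e1 := Contrib.natCard_defectGroup hMp hb hDb
    rw [Nat.card_congr (Subgroup.subgroupOfEquivOfLe hPC).toEquiv,
      Contrib.natCard_defectGroup hMp hB hDB] at e1
    exact (Nat.pow_right_injective hp.out.two_le e1).symm
  obtain ⟨k, hk⟩ := hvo
  obtain ⟨φ, hφ, hφ0⟩ := HeightZero.exists_height_zero (p := p) hB
  refine (Contrib.major_facts hMp hC (k := k) (by rw [← hk]; exact pow_orderOf_eq_one v) hind hmaj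
    (j := 1) (by rw [pow_one]; exact hC.symm) ⟨k, by rw [pow_one, hk]⟩).1 χ hχ φ hφ hφ0 ?_
  rw [Contrib.contrib, pow_one, Finset.sum_eq_zero, mul_zero]
  intro s hs
  rw [hsect s hs, zero_mul]

end CfsgLib.Blocks.InertiaFixed
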